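import Mathlib
import Cfsg.Agent.H31.SylowBasic
import Cfsg.Agent.H31.SylowPrime
import Cfsg.Agent.H31.CommutingPerm
import Cfsg.Agent.H30.Basics

/-!
No simple group of order 459648.
-/

set_option autoImplicit false

namespace Cfsg.Agent.H31.Order459648

open scoped Pointwise

variable {G : Type*} [Group G] [Finite G]

/-- An element of prime order `p` normalising a `2`-group whose order is not congruent to a
smaller power of two modulo `p` centralises it. -/
theorem commute_of_normalizes {p b : ℕ} [Fact p.Prime] (R : Subgroup G) (hR : Nat.card ↥R = 2 ^ b)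
    (hb : ∀ a, a < b → ¬ 2 ^ b ≡ 2 ^ a [MOD p]) {u : G} (hu : u ^ p = 1)
    (hN : u ∈ Subgroup.normalizer (R : Set G)) : ∀ r ∈ R, u * r = r * u := by
  classical
  have := Fintype.ofFinite ↥R
  let φ : MulAut ↥R := R.normalizerMonoidHom ⟨u, hN⟩
  let f : Function.End ↥R := fun x => φ x
  have hφ : φ ^ p = 1 := by
    rw [← map_pow, show (⟨u, hN⟩ : Subgroup.normalizer (R : Set G)) ^ p = 1 from Subtype.ext hu,
      map_one]
  have hf : f ^ p ^ 1 = 1 := by
    have key : ∀ n, ∀ x, (f ^ n) x = (φ ^ n) x := by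
      intro n
      induction n with
      | zero => intro x; rfl
      | succ n ih => intro x; rw [pow_succ', pow_succ']; change f ((f ^ n) x) = _; rw [ih]; rfl
    funext x
    rw [pow_one, key, hφ]; rfl
  let F : Subgroup ↥R := φ.toMonoidHom.eqLocus (MonoidHom.id _)
  have h1 : Fintype.card ↥R ≡ Fintype.card f.fixedPoints [MOD p] :=
    Equiv.Perm.card_fixedPoints_modEq hf
  have h2 : Fintype.card f.fixedPoints = Nat.card ↥F := by
    rw [← Nat.card_eq_fintype_card]; exact Nat.card_congr (Equiv.refl _)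
  rw [h2, ← Nat.card_eq_fintype_card, hR] at h1
  obtain ⟨a, ha, hFa⟩ := (Nat.dvd_prime_pow Nat.prime_two).1 (hR ▸ F.card_subgroup_dvd_card)
  rw [hFa] at h1
  have hab : a = b := by
    rcases Nat.lt_or_ge a b with h | h
    · exact absurd h1 (hb a h)
    · omega
  have hFtop : F = ⊤ := Subgroup.eq_top_of_card_eq F (by rw [hFa, hab, hR])
  intro r hr
  have : φ ⟨r, hr⟩ = ⟨r, hr⟩ := (show (⟨r, hr⟩ : ↥R) ∈ F from hFtop ▸ Subgroup.mem_top _)
  have h3 : u * r * u⁻¹ = r := congrArg Subtype.val this
  calc u * r = u * r * u⁻¹ * u := by group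
    _ = r * u := by rw [h3]

instance fact19 : Fact (Nat.Prime 19) := ⟨by norm_num⟩

theorem sylow_numbers : ∀ d ∈ Nat.divisors 24192, d % 19 = 1 → d = 1 ∨ d = 96 ∨ d = 1008 := by
  decide +kernel

variable [IsSimpleGroup G]

/-- No proper subgroup has two Sylow 19-subgroups and a large piece of the centraliser of one. -/
theorem no_large_subgroup (h : Nat.card G = 459648) (P : Sylow 19 G)
    (hN : Nat.card ↥(Subgroup.normalizer ((P : Subgroup G) : Set G)) = 456)
    (H : Subgroup G) (hH : H ≠ ⊤) (hPH : (P : Subgroup G) ≤ H) (Q : Sylow 19 G) (hQP : Q ≠ P)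
    (hQH : (Q : Subgroup G) ≤ H)
    (h76 : 76 ∣ Nat.card ↥(H ⊓ Subgroup.centralizer ((P : Subgroup G) : Set G))) : False := by
  classical
  have hG : ¬ IsMulCommutative G := Cfsg.Agent.H30.not_comm_of_not_prime (by rw [h]; norm_num)
  have hP19 : Nat.card ↥(P : Subgroup G) = 19 := by
    simpa using Cfsg.Agent.H30.card_sylow_subgroup (a := 1) (m := 24192) P (by rw [h]; norm_num)
      (by norm_num)
  set C := Subgroup.centralizer ((P : Subgroup G) : Set G) with hC
  set N := Subgroup.normalizer ((P : Subgroup G) : Set G) with hNdef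
  have hCN : C ≤ N := Subgroup.centralizer_le_normalizer _
  let PH : Sylow 19 H := P.subtype hPH
  set NH := Subgroup.normalizer ((PH : Subgroup H) : Set H) with hNH
  have hNHeq : NH.map H.subtype = N ⊓ H := by
    ext x
    constructor
    · rintro ⟨y, hy, rfl⟩
      refine ⟨?_, y.2⟩
      change (y : G) ∈ N
      rw [hNdef, Subgroup.mem_normalizer_iff]
      intro z
      constructor
      · intro hz
        exact (Subgroup.mem_normalizer_iff.1 hy ⟨z, hPH hz⟩).1 hz
      · intro hz
        have hzH : z ∈ H := by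
          have := H.mul_mem (H.mul_mem (H.inv_mem y.2) (hPH hz)) y.2
          simpa [mul_assoc] using this
        exact (Subgroup.mem_normalizer_iff.1 hy ⟨z, hzH⟩).2 hz
    · rintro ⟨hxN, hxH⟩
      refine ⟨⟨x, hxH⟩, ?_, rfl⟩
      rw [SetLike.mem_coe, Subgroup.mem_normalizer_iff]
      intro z
      exact Subgroup.mem_normalizer_iff.1 hxN z.1
  set k := Nat.card ↥NH with hk
  have hkeq : k = Nat.card ↥(N ⊓ H : Subgroup G) := by
    rw [hk, ← hNHeq, Subgroup.card_map_of_injective H.subtype_injective]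
  have hk76 : 76 ∣ k := hkeq ▸ h76.trans (Subgroup.card_dvd_of_le (by rw [inf_comm]; exact inf_le_inf_right _ hCN))
  have hk456 : k ∣ 456 := hkeq ▸ hN ▸ Subgroup.card_dvd_of_le inf_le_left
  set n := Nat.card (Sylow 19 H) with hn
  have hnk : n * k = Nat.card ↥H := Cfsg.Agent.H30.card_sylow_mul_normalizer 19 PH
  have hn1 : n ≠ 1 := by
    intro h1
    have := (Nat.card_eq_one_iff_unique.1 h1).1
    exact hQP (Sylow.subtype_injective (hP := hQH) (hQ := hPH) (Subsingleton.elim _ _))
  have hHd : Nat.card ↥H ∣ 19 * 24192 := by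
    have := H.card_subgroup_dvd_card; rw [h] at this; simpa using this
  have hndvd : n ∣ 24192 := by
    have hmod : n % 19 = 1 := card_sylow_modEq_one 19 H
    have h2 : n ∣ 19 * 24192 := (Dvd.intro k hnk).trans hHd
    refine (Nat.Coprime.dvd_of_dvd_mul_left ?_ h2)
    refine ((show Nat.Prime 19 by norm_num).coprime_iff_not_dvd.2 fun hd => ?_).symm
    omega
  have hncases : n = 96 ∨ n = 1008 :=
    (sylow_numbers n (Nat.mem_divisors.2 ⟨hndvd, by norm_num⟩)
      (card_sylow_modEq_one 19 H)).resolve_left hn1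
  have hidx : n * k * H.index = 459648 := by rw [hnk, Subgroup.card_mul_index, h]
  have hfac : 2 * 459648 ∣ H.index.factorial := h ▸ Cfsg.Agent.H30.two_mul_card_dvd_factorial hG H hH
  obtain ⟨j, hj⟩ := hk76
  have hj6 : j ≤ 6 := by
    have := Nat.le_of_dvd (by norm_num) hk456; omega
  have hj0 : 0 < j := by
    rcases Nat.eq_zero_or_pos j with rfl | h'
    · have : 0 < k := Nat.card_pos
      omega
    · exact h'
  rcases hncases with e | e <;> rw [e, hj] at hidx
  swap
  · -- many Sylow subgroups: index at most six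
    have hi : H.index ≤ 6 := by nlinarith
    interval_cases H.index <;> norm_num [Nat.factorial] at hfac
  have hji : j * H.index = 63 := by
    have h1 : 7296 * (j * H.index) = 459648 := by rw [← hidx]; ring
    omega
  obtain ⟨hj13, hidx'⟩ : (j = 1 ∨ j = 3) ∧ H.index * j = 63 := by
    refine ⟨?_, by rw [mul_comm]; exact hji⟩
    interval_cases j <;> omega
  rcases hj13 with rfl | rfl
  · -- index 63
    rw [mul_one] at hidx'
    have hk' : k = 76 := by omega
    have hHcard : Nat.card ↥H = 19 * 384 := by rw [← hnk, e, hk']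
    have hNC : Subgroup.normalizer ((PH : Subgroup H) : Set H) ≤
        Subgroup.centralizer ((PH : Subgroup H) : Set H) := by
      have heq : H ⊓ C = N ⊓ H := by
        refine Subgroup.eq_of_le_of_card_ge (by rw [inf_comm N]; exact inf_le_inf_left _ hCN) ?_
        rw [← hkeq, hk']
        exact Nat.le_of_dvd Nat.card_pos h76
      intro x hx
      have h1 : (x : G) ∈ N ⊓ H := hNHeq ▸ Subgroup.mem_map_of_mem H.subtype hx
      rw [← heq] at h1
      rw [Subgroup.mem_centralizer_iff]
      intro z hz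
      exact Subtype.ext (Subgroup.mem_centralizer_iff.1 h1.2 z.1 hz)
    have hPH19 : Nat.card ↥(PH : Subgroup H) = 19 := by
      simpa using Cfsg.Agent.H30.card_sylow_subgroup (a := 1) (m := 384) PH (by rw [hHcard, pow_one])
        (by norm_num)
    set M := (MonoidHom.transferSylow PH hNC).ker with hM
    have hMcard : Nat.card ↥M = 384 := by
      have := (MonoidHom.ker_transferSylow_isComplement' PH hNC).card_mul_card
      rw [hPH19, hHcard, ← hM] at this
      omega
    have : Fact (Nat.Prime 2) := ⟨Nat.prime_two⟩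
    let R0 : Sylow 2 H := default
    have hR0 : Nat.card ↥(R0 : Subgroup H) = 2 ^ 7 :=
      Cfsg.Agent.H30.card_sylow_subgroup (a := 7) (m := 57) R0 (by rw [hHcard]; norm_num) (by norm_num)
    have hR0M : (R0 : Subgroup H) ≤ M := by
      intro z hz
      rw [hM, MonoidHom.mem_ker]
      have h1 : MonoidHom.transferSylow PH hNC z ^ 2 ^ 7 = 1 := by
        rw [← map_pow]
        have : (⟨z, hz⟩ : (R0 : Subgroup H)) ^ Nat.card ↥(R0 : Subgroup H) = 1 := pow_card_eq_one'
        rw [hR0] at this
        rw [show z ^ 2 ^ 7 = 1 from congrArg Subtype.val this, map_one]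
      have h2 : MonoidHom.transferSylow PH hNC z ^ Nat.card ↥(PH : Subgroup H) = 1 := pow_card_eq_one'
      rw [hPH19] at h2
      have := pow_gcd_eq_one.2 ⟨h1, h2⟩
      rwa [show Nat.gcd (2 ^ 7) 19 = 1 by norm_num, pow_one] at this
    have hn2 : ¬ 19 ∣ Nat.card (Sylow 2 H) := by
      rw [← card_sylow_normal_subgroup R0 hR0M]
      intro hd
      have := hd.trans ((default : Sylow 2 M).card_dvd_index.trans (Subgroup.index_dvd_card _))
      rw [hMcard] at this
      norm_num at this
    obtain ⟨R, hR⟩ := IsPGroup.nonempty_fixed_point_of_prime_not_dvd_card PH.isPGroup' (Sylow 2 H) hn2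
    have hRcard : Nat.card ↥(R : Subgroup H) = 2 ^ 7 :=
      Cfsg.Agent.H30.card_sylow_subgroup (a := 7) (m := 57) R (by rw [hHcard]; norm_num) (by norm_num)
    have hRN : (R : Subgroup H) ≤ Subgroup.normalizer ((PH : Subgroup H) : Set H) := by
      refine le_trans ?_ (Subgroup.centralizer_le_normalizer _)
      intro r hr
      rw [Subgroup.mem_centralizer_iff]
      intro u hu
      refine commute_of_normalizes (p := 19) (b := 7) (R : Subgroup H) hRcard ?_ ?_
        (Sylow.smul_eq_iff_mem_normalizer.1 (hR ⟨u, hu⟩)) r hr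
      · intro a ha; interval_cases a <;> decide
      · have : (⟨u, hu⟩ : (PH : Subgroup H)) ^ Nat.card ↥(PH : Subgroup H) = 1 := pow_card_eq_one'
        rw [hPH19] at this; exact congrArg Subtype.val this
    have h128 := Subgroup.card_dvd_of_le hRN
    rw [hRcard, ← hNH, ← hk, hk'] at h128
    norm_num at h128
  · -- index 21
    have hi : H.index = 21 := by omega
    obtain ⟨f, hf⟩ := Cfsg.Agent.H30.exists_hom_alternating hG H hH
    obtain ⟨u, hu⟩ := exists_prime_orderOf_dvd_card' (G := ↥(P : Subgroup G)) 19 (by rw [hP19])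
    obtain ⟨y, hy⟩ := exists_prime_orderOf_dvd_card' (G := ↥(H ⊓ C : Subgroup G)) 2
      ((show 2 ∣ 76 by norm_num).trans h76)
    let σ : Equiv.Perm (Fin H.index) := (f (u : G)).1
    let τ : Equiv.Perm (Fin H.index) := (f (y : G)).1
    have hσ : σ ^ 19 = 1 := by
      change (f (u : G)).1 ^ 19 = 1
      have e' : ((u : G)) ^ 19 = 1 := orderOf_dvd_iff_pow_eq_one.1 (by rw [Subgroup.orderOf_coe, hu])
      rw [← Subgroup.coe_pow, ← map_pow, e', map_one, Subgroup.coe_one]
    have hσ1 : σ ≠ 1 := by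
      intro e'
      have : (u : G) = 1 := hf ((Subtype.ext e' : f (u : G) = 1).trans (map_one f).symm)
      rw [← Subgroup.orderOf_coe, this, orderOf_one] at hu
      norm_num at hu
    have hτ : τ ^ 2 = 1 := by
      change (f (y : G)).1 ^ 2 = 1
      have e' : ((y : G)) ^ 2 = 1 := orderOf_dvd_iff_pow_eq_one.1 (by rw [Subgroup.orderOf_coe, hy])
      rw [← Subgroup.coe_pow, ← map_pow, e', map_one, Subgroup.coe_one]
    have hc : Commute σ τ := by
      have h1 : (u : G) * y = y * u := Subgroup.mem_centralizer_iff.1 y.2.2 (u : G) u.2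
      change (f (u : G)).1 * (f (y : G)).1 = (f (y : G)).1 * (f (u : G)).1
      rw [← Subgroup.coe_mul, ← Subgroup.coe_mul, ← map_mul, ← map_mul, h1]
    have hsign : Equiv.Perm.sign τ = 1 := Equiv.Perm.mem_alternatingGroup.1 (f (y : G)).2
    have := eq_one_of_commute_involution (p := 19) (by norm_num) hσ hσ1 hτ hc
      (by rw [Fintype.card_fin, hi]) hsign
    have hy1 : (y : G) = 1 := hf ((Subtype.ext this : f (y : G) = 1).trans (map_one f).symm)
    rw [← Subgroup.orderOf_coe, hy1, orderOf_one] at hy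
    norm_num at hy

/-- No simple group has order 459648. -/
theorem card_ne : Nat.card G ≠ 459648 := by
  classical
  intro h
  have hG : ¬ IsMulCommutative G := Cfsg.Agent.H30.not_comm_of_not_prime (by rw [h]; norm_num)
  have : Fact (Nat.Prime 2) := ⟨Nat.prime_two⟩
  let P : Sylow 19 G := default
  have hP19 : Nat.card ↥(P : Subgroup G) = 19 := by
    simpa using Cfsg.Agent.H30.card_sylow_subgroup (a := 1) (m := 24192) P (by rw [h]; norm_num)
      (by norm_num)
  set C := Subgroup.centralizer ((P : Subgroup G) : Set G) with hC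
  set N := Subgroup.normalizer ((P : Subgroup G) : Set G) with hN
  obtain ⟨e, c, he, he1, hNe, hCe⟩ := Cfsg.Agent.H30.exists_automizer_of_prime_order hG 19 P hP19
  have hnN := Cfsg.Agent.H30.card_sylow_mul_normalizer 19 P
  rw [hNe, h] at hnN
  have hn : Nat.card (Sylow 19 G) = 96 ∨ Nat.card (Sylow 19 G) = 1008 :=
    (sylow_numbers _ (Nat.mem_divisors.2 ⟨Cfsg.Agent.H30.card_sylow_dvd (a := 1) (m := 24192)
      (by rw [h]; norm_num) (by norm_num), by norm_num⟩)
      (card_sylow_modEq_one 19 G)).resolve_left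
      (Cfsg.Agent.H30.card_sylow_ne_one hG 19 (by rw [h]; norm_num))
  have he18 := Nat.le_of_dvd (by norm_num) he
  rcases hn with hn | hn <;> rw [hn] at hnN
  · -- ninety-six: an element of order seven would centralise `P`
    have hce : c * e = 252 := by linarith
    have h7 : 7 ∣ c := by
      rcases (show Nat.Prime 7 by norm_num).dvd_mul.1 (show 7 ∣ c * e by rw [hce]; norm_num) with h7 | h7
      · exact h7
      · exact absurd (h7.trans he) (by norm_num)
    have : Fact (Nat.Prime 7) := ⟨by norm_num⟩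
    obtain ⟨v, hv⟩ := exists_prime_orderOf_dvd_card' (G := ↥C) 7
      (by rw [hC, hCe]; exact dvd_mul_of_dvd_right h7 19)
    obtain ⟨u, hu⟩ := exists_prime_orderOf_dvd_card' (G := ↥(P : Subgroup G)) 19 (by rw [hP19])
    have := Fintype.ofFinite (Sylow 19 G)
    let φ := MulAction.toPermHom G (Sylow 19 G)
    have hφ : Function.Injective φ := by
      rw [← MonoidHom.ker_eq_bot_iff]
      refine (IsSimpleGroup.eq_bot_or_eq_top_of_normal _ inferInstance).resolve_right fun ht => ?_
      refine Cfsg.Agent.H30.card_sylow_ne_one hG 19 (by rw [h]; norm_num)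
        (Nat.card_eq_one_iff_unique.2 ⟨⟨fun A B => ?_⟩, ⟨P⟩⟩)
      obtain ⟨g, rfl⟩ := MulAction.exists_smul_eq G A B
      have h1 : φ g = 1 := by rw [← MonoidHom.mem_ker, ht]; trivial
      exact (congrArg (fun q => q A) h1).symm
    have h1 : φ (v : G) = 1 := by
      refine eq_one_of_commute_prime (p := 19) (r := 7) (by norm_num) (σ := φ (u : G)) ?_ ?_ ?_ ?_ ?_
      · rw [← map_pow, orderOf_dvd_iff_pow_eq_one.1 (show orderOf (u : G) ∣ 19 by rw [Subgroup.orderOf_coe, hu]), map_one]
      · rw [← map_pow, orderOf_dvd_iff_pow_eq_one.1 (show orderOf (v : G) ∣ 7 by rw [Subgroup.orderOf_coe, hv]), map_one]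
      · have h2 : (u : G) * v = v * u := Subgroup.mem_centralizer_iff.1 v.2 (u : G) u.2
        change φ (u : G) * φ (v : G) = φ (v : G) * φ (u : G)
        rw [← map_mul, ← map_mul, h2]
      · intro Q hQ
        have hQP : Q = P := by
          have hu19 : orderOf (u : G) = 19 := by rw [Subgroup.orderOf_coe, hu]
          have h2 := mem_sylow_of_mem_normalizer Q (Sylow.smul_eq_iff_mem_normalizer.1 hQ) (k := 1)
            (by rw [hu19, pow_one])
          have hu1 : (u : G) ≠ 1 := fun e' => by rw [e', orderOf_one] at hu19; norm_num at hu19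
          have hQ19 : Nat.card ↥(Q : Subgroup G) = 19 := by
            rw [Q.card_eq_multiplicity, ← P.card_eq_multiplicity, hP19]
          exact Sylow.ext ((zpowers_eq_of_prime_card hQ19 h2 hu1).1.symm.trans
            (zpowers_eq_of_prime_card hP19 u.2 hu1).1)
        subst hQP
        exact Sylow.smul_eq_iff_mem_normalizer.2 (Subgroup.centralizer_le_normalizer _ v.2)
      · rw [← Nat.card_eq_fintype_card, hn]; norm_num
    have hv1 : (v : G) = 1 := hφ (h1.trans (map_one φ).symm)
    rw [← Subgroup.orderOf_coe, hv1, orderOf_one] at hv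
    norm_num at hv
  -- one thousand and eight
  have hce : c * e = 24 := by linarith
  have hN456 : Nat.card ↥N = 456 := by rw [hNe, mul_assoc, hce]; norm_num
  have hc4 : 4 ∣ c := by
    have he24 : e ∣ 6 := by
      have := Nat.dvd_gcd (Dvd.intro_left c hce) he
      simpa using this
    obtain ⟨d, hd⟩ := he24
    exact ⟨d, by nlinarith⟩
  let T0 : Sylow 2 C := default
  set T := (T0 : Subgroup C).map C.subtype with hT
  have hTcard : Nat.card ↥T = 2 ^ (Nat.card ↥C).factorization 2 := by
    rw [hT, Subgroup.card_map_of_injective C.subtype_injective, T0.card_eq_multiplicity]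
  have hT4 : 4 ∣ Nat.card ↥T := by
    rw [hT, Subgroup.card_map_of_injective C.subtype_injective]
    exact T0.pow_dvd_card_of_pow_dvd_card (n := 2) (by rw [hC, hCe]; exact dvd_mul_of_dvd_right hc4 19)
  have hTC : T ≤ C := Subgroup.map_subtype_le _
  have hTN : T ≤ N := hTC.trans (Subgroup.centralizer_le_normalizer _)
  have hTp : IsPGroup 2 ↥T := T0.isPGroup'.map _
  obtain ⟨T1, hT1⟩ := (hTp.of_equiv (Subgroup.subgroupOfEquivOfLe hTN).symm :
    IsPGroup 2 ↥(T.subgroupOf N)).exists_le_sylow
  set T' := (T1 : Subgroup N).map N.subtype with hT'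
  have hT'card : Nat.card ↥T' = 8 := by
    rw [hT', Subgroup.card_map_of_injective N.subtype_injective]
    simpa using Cfsg.Agent.H30.card_sylow_subgroup (a := 3) (m := 57) T1 (by rw [hN456]; norm_num) (by norm_num)
  have hTT' : T ≤ T' := fun x hx => ⟨⟨x, hTN hx⟩, hT1 hx, rfl⟩
  obtain ⟨S, hS⟩ := (T1.isPGroup'.map N.subtype).exists_le_sylow
  rw [← hT'] at hS
  have hScard : Nat.card ↥(S : Subgroup G) = 128 := by
    simpa using Cfsg.Agent.H30.card_sylow_subgroup (a := 7) (m := 3591) S (by rw [h]; norm_num) (by norm_num)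
  obtain ⟨s, hsS, hsT'⟩ : ∃ s ∈ (S : Subgroup G), s ∉ T' ∧ s ∈ Subgroup.normalizer (T' : Set G) := by
    have : Group.IsNilpotent ↥(S : Subgroup G) := S.isPGroup'.isNilpotent
    have hlt : T'.subgroupOf (S : Subgroup G) < ⊤ := by
      rw [lt_top_iff_ne_top, Ne, Subgroup.subgroupOf_eq_top]
      intro hle
      have := Nat.le_of_dvd Nat.card_pos (Subgroup.card_dvd_of_le hle)
      rw [hScard, hT'card] at this
      norm_num at this
    obtain ⟨s, hs1, hs2⟩ := SetLike.exists_of_lt (Group.normalizerCondition_of_isNilpotent _ hlt)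
    refine ⟨s, s.2, fun h' => hs2 h', ?_⟩
    rw [Subgroup.mem_normalizer_iff]
    intro x
    constructor
    · intro hx
      exact (Subgroup.mem_normalizer_iff.1 hs1 ⟨x, hS hx⟩).1 hx
    · intro hx
      have hxS : x ∈ (S : Subgroup G) := by
        have := Subgroup.mul_mem _ (Subgroup.mul_mem _ (inv_mem s.2) (hS hx)) s.2
        simpa [mul_assoc] using this
      exact (Subgroup.mem_normalizer_iff.1 hs1 ⟨x, hxS⟩).2 hx
  obtain ⟨hsT', hsnorm⟩ := hsT'
  have hsN : s ∉ N := by
    intro hsN
    obtain ⟨j, hj⟩ := IsPGroup.iff_orderOf.1 S.isPGroup' ⟨s, hsS⟩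
    rw [Subgroup.orderOf_mk] at hj
    have hmem : (⟨s, hsN⟩ : N) ∈ Subgroup.normalizer ((T1 : Subgroup N) : Set N) := by
      rw [Subgroup.mem_normalizer_iff]
      intro x
      have hiff : ∀ z : N, z ∈ (T1 : Subgroup N) ↔ (z : G) ∈ T' := by
        intro z
        rw [hT', Subgroup.mem_map]
        exact ⟨fun hz => ⟨z, hz, rfl⟩, fun ⟨w, hw, hwz⟩ => N.subtype_injective hwz ▸ hw⟩
      rw [hiff, hiff]
      exact Subgroup.mem_normalizer_iff.1 hsnorm x.1
    have := mem_sylow_of_mem_normalizer T1 hmem (k := j) (by rw [Subgroup.orderOf_mk, hj])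
    exact hsT' ⟨_, this, rfl⟩
  -- a common involution
  set Ts := T.map (MulAut.conj s).toMonoidHom with hTs
  have hTsle : Ts ≤ T' := by
    rintro _ ⟨x, hx, rfl⟩
    exact (Subgroup.mem_normalizer_iff.1 hsnorm x).1 (hTT' hx)
  have hTscard : Nat.card ↥Ts = Nat.card ↥T :=
    Subgroup.card_map_of_injective (MulAut.conj s).injective
  have hTd : Nat.card ↥T = 4 ∨ Nat.card ↥T = 8 := by
    have h1 := Subgroup.card_dvd_of_le hTT'
    rw [hT'card] at h1
    have := Nat.le_of_dvd (by norm_num) h1
    obtain ⟨q, hq⟩ := hT4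
    have : 0 < Nat.card ↥T := Nat.card_pos
    omega
  obtain ⟨y, hyT, hyTs, hy1, hycomm⟩ : ∃ y, y ∈ T ∧ y ∈ Ts ∧ y ≠ 1 ∧ ∀ x ∈ T, x * y = y * x := by
    rcases hTd with h4 | h8
    · have hne : T ⊓ Ts ≠ ⊥ := by
        intro hbot
        have hinj := Subgroup.mul_injective_of_disjoint (disjoint_iff.2 hbot)
        have := Nat.card_le_card_of_injective
          (fun g : T × Ts => (⟨g.1.1 * g.2.1, T'.mul_mem (hTT' g.1.2) (hTsle g.2.2)⟩ : T'))
          (fun a b e' => hinj (congrArg Subtype.val e'))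
        rw [Nat.card_prod, hTscard, h4, hT'card] at this
        norm_num at this
      obtain ⟨y, hy, hy1⟩ := (Subgroup.bot_or_exists_ne_one _).resolve_left hne
      refine ⟨y, hy.1, hy.2, hy1, fun x hx => ?_⟩
      have hc := IsPGroup.isMulCommutative_of_card_eq_prime_sq (p := 2) (G := ↥T) (by rw [h4]; rfl)
      exact congrArg Subtype.val (hc.is_comm.comm ⟨x, hx⟩ ⟨y, hy.1⟩)
    · have hTeq : T = T' := Subgroup.eq_of_le_of_card_ge hTT' (by rw [h8, hT'card])
      have hTseq : Ts = T' := Subgroup.eq_of_le_of_card_ge hTsle (by rw [hTscard, h8, hT'card])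
      have : Nontrivial ↥T := Finite.one_lt_card_iff_nontrivial.1 (by rw [h8]; norm_num)
      obtain ⟨z, hz, hz1⟩ := (Subgroup.bot_or_exists_ne_one (Subgroup.center ↥T)).resolve_left
        hTp.bot_lt_center.ne'
      refine ⟨z, z.2, by rw [hTseq, ← hTeq]; exact z.2, fun e' => hz1 (Subtype.ext e'), fun x hx => ?_⟩
      exact congrArg Subtype.val (Subgroup.mem_center_iff.1 hz ⟨x, hx⟩)
  set H := Subgroup.centralizer ({y} : Set G) with hH
  have hHtop : H ≠ ⊤ := by
    intro ht
    have hyc : y ∈ Subgroup.center G := by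
      rw [Subgroup.mem_center_iff]
      intro g
      exact Subgroup.mem_centralizer_singleton_iff.1 (show g ∈ H from ht ▸ Subgroup.mem_top g)
    rcases IsSimpleGroup.eq_bot_or_eq_top_of_normal (Subgroup.center G) inferInstance with hz | hz
    · rw [hz, Subgroup.mem_bot] at hyc; exact hy1 hyc
    · exact hG ⟨⟨fun a b => Subgroup.mem_center_iff.1 (hz ▸ Subgroup.mem_top b) a⟩⟩
  have hPH : (P : Subgroup G) ≤ H := by
    intro u hu
    rw [hH, Subgroup.mem_centralizer_singleton_iff]
    exact Subgroup.mem_centralizer_iff.1 (hTC hyT) u hu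
  have hQH : ((s • P : Sylow 19 G) : Subgroup G) ≤ H := by
    rw [Sylow.coe_subgroup_smul]
    rintro _ ⟨u, hu, rfl⟩
    obtain ⟨t, ht, rfl⟩ := hyTs
    rw [hH, Subgroup.mem_centralizer_singleton_iff]
    change s * u * s⁻¹ * (s * t * s⁻¹) = s * t * s⁻¹ * (s * u * s⁻¹)
    have h1 : u * t = t * u := Subgroup.mem_centralizer_iff.1 (hTC ht) u hu
    calc s * u * s⁻¹ * (s * t * s⁻¹) = s * (u * t) * s⁻¹ := by group
      _ = s * (t * u) * s⁻¹ := by rw [h1]
      _ = _ := by group
  have hQP : (s • P : Sylow 19 G) ≠ P := fun e' => hsN (Sylow.smul_eq_iff_mem_normalizer.1 e')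
  refine no_large_subgroup h P hN456 H hHtop hPH _ hQP hQH ?_
  have h4T : 4 ∣ Nat.card ↥(H ⊓ C : Subgroup G) := hT4.trans (Subgroup.card_dvd_of_le (le_inf
    (fun x hx => Subgroup.mem_centralizer_singleton_iff.2 (hycomm x hx)) hTC))
  have h19 : 19 ∣ Nat.card ↥(H ⊓ C : Subgroup G) := hP19 ▸ Subgroup.card_dvd_of_le (le_inf hPH (by
    have : IsCyclic ↥(P : Subgroup G) := isCyclic_of_prime_card hP19
    have : IsMulCommutative ↥(P : Subgroup G) := IsCyclic.isMulCommutative
    exact Subgroup.le_centralizer _))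
  exact Nat.Coprime.mul_dvd_of_dvd_of_dvd (show Nat.Coprime 4 19 by norm_num) h4T h19

end Cfsg.Agent.H31.Order459648
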